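import Cfsg.Agent.F42S.Md
import Cfsg.Agent.PLocal.AmbSyl

/-! Standard subgroup `F₄(2)`: the frame, the doubled root elements, and their relations.

Root indices: simple `33 = (+---)/2`, `27 = e₄` short, `25 = e₃-e₄`, `24 = e₂-e₃` long; `-r = 47 - r`;
`28 = e₃, 29 = e₂, 44 = e₁`; `47, 46, 45 = e₁+e₂, e₁+e₃, e₁+e₄`; `43, 42, 41 = e₁-e₄, e₁-e₃, e₁-e₂`;
`33..40 = (+±±±)/2` (`34 +--+, 35 +-+-, 36 ++--, 37 +-++, 38 ++-+, 39 +++-, 40 ++++`);
`26 = e₂-e₄, 30 = e₃+e₄, 31 = e₂+e₄, 32 = e₂+e₃`.  `gm`: `24↔33, 25↔27, 26↔34, 28↔30, 29↔41, 31↔35,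
32↔37, 36↔42, 38↔43, 39↔45, 40↔46, 44↔47`. -/

set_option autoImplicit false

namespace Cfsg.Agent.F42S

open Subgroup
open Cfsg.Agent.WG (el)

variable {G : Type*} [Group G]

/-- `t` is an involution with `C(t) ∩ C(L) = ⟨t⟩` and `L = j(F₄(2))` normal in `C(t)`. -/
structure Fr (j : L0 →* G) (t : G) : Prop where
  tt : t * t = 1
  t1 : t ≠ 1
  tj : ∀ a, t * j a = j a * t
  inj : Function.Injective j
  cen : ∀ g, g * t = t * g → (∀ a, g * j a = j a * g) → g = 1 ∨ g = t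
  nrm : ∀ g, g * t = t * g → ∀ a, ∃ b, g * j a * g⁻¹ = j b

/-- `g ∈ ⟨t⟩ L`. -/
def Inn (j : L0 →* G) (t g : G) : Prop := ∃ a, g = j a ∨ g = t * j a

/-- `g` induces an outer automorphism on `L`. -/
def Out (j : L0 →* G) (g : G) : Prop := ∃ a, ∀ b, g * j b * g⁻¹ = j (a * gam b * a⁻¹)

/-- `t` and `t x₄₄` are swapped by an element fixing `x₄₄`. -/
def Sw (j : L0 →* G) (t : G) : Prop :=
  ∃ g, g * t * g⁻¹ = t * j (xx 44) ∧ g * j (xx 44) * g⁻¹ = j (xx 44)

/-- The doubled root element of `r` commutes with `x_s`. -/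
def Mo (r s : ℕ) : Prop := 8 < ip r s ∨ (ip r s = 8 ∧ lg s ≠ lg r)

instance instDecMo (r s : ℕ) : Decidable (Mo r s) := inferInstanceAs (Decidable (_ ∨ _))

/-- The doubled root element for the root `44`. -/
structure Yd (j : L0 →* G) (t y : G) (e : ℕ) : Prop where
  le : e ≤ 1
  sq : y * y = 1
  ct : y * t * y = t * j (xx 44)
  cm : ∀ s < 48, Mo 44 s → y * j (xx s) = j (xx s) * y
  or : ∀ s < 48, lg s = false → ip 44 s = 8 → y * j (xx s) * y = j (xx s) * j (xx (ad 44 s)) ^ e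

/-- The doubled root elements for all short roots. -/
structure Sy (j : L0 →* G) (t : G) (Y : ℕ → G) (e : ℕ) : Prop where
  le : e ≤ 1
  sq : ∀ r < 48, lg r = false → Y r * Y r = 1
  ct : ∀ r < 48, lg r = false → Y r * t * Y r = t * j (xx r)
  cm : ∀ r < 48, lg r = false → ∀ s < 48, Mo r s → Y r * j (xx s) = j (xx s) * Y r
  or : ∀ r < 48, lg r = false → ∀ s < 48, lg s = false → ip r s = 8 →
    Y r * j (xx s) * Y r = j (xx s) * j (xx (ad r s)) ^ e
  wn : ∀ i < 4, ∀ r < 48, lg r = false → j (el xx (nr (sm i))) * Y r * (j (el xx (nr (sm i))))⁻¹ =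
    Y (sr i r) * j (xx (sr i r)) ^ (if i < 2 then e else 0)

/-- The relations between doubled root elements at `60°` and `120°`. -/
structure RA (j : L0 →* G) (Y : ℕ → G) (e ρ : ℕ) : Prop where
  le : ρ ≤ 1
  c60 : ∀ r < 48, ∀ s < 48, lg r = false → lg s = false → ip r s = 10 → Y r * Y s = Y s * Y r
  x120 : ∀ r < 48, ∀ s < 48, lg r = false → lg s = false → ip r s = 6 →
    j (xx s) * Y r * j (xx s) = Y r * Y (ad r s) * j (xx (ad r s)) ^ e
  y120 : ∀ r < 48, ∀ s < 48, lg r = false → lg s = false → ip r s = 6 →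
    Y s * Y r * Y s = Y r * Y (ad r s) * j (xx (ad r s)) ^ ρ

/-- The size of the root group (types `0 = E₆(2)`, `1 = ²E₆(2)`, `2 = F₄(4)`, `3 = F₄(2)²`). -/
def sz (ty r : ℕ) : ℕ := if lg r = true ∧ ty < 2 then 2 else 4

/-- The involution `ω ↦ ω + 1` of the coefficient ring `{0, 1, ω = 2, ω + 1 = 3}`. -/
def br (c : ℕ) : ℕ := c ^^^ (c / 2)

/-- The product of the coefficient ring: `ω² = ω + 1` for types `1, 2` and `ω² = ω` otherwise. -/
def mu (ty c d : ℕ) : ℕ :=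
  (c % 2 * (d % 2) + (if ty = 1 ∨ ty = 2 then c / 2 * (d / 2) else 0)) % 2 +
    2 * ((c % 2 * (d / 2) + c / 2 * (d % 2) + c / 2 * (d / 2)) % 2)

/-- The commutator word: `X_s(d) X_r(c) = X_r(c) X_s(d) (cw ty r s c d)`. -/
def cw (ty r s c d : ℕ) : List (ℕ × ℕ) :=
  if lg r = lg s then
    if lg r then (if ip r s = 4 then [(ad r s, mu ty c d)] else [])
    else if ip r s = 6 then [(ad r s, if ty < 2 then br (mu ty c d) else mu ty c d)]
    else if ip r s = 8 ∧ ty < 2 then [(ad r s, mu ty c (br d) ^^^ mu ty (br c) d)] else []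
  else if ip r s = 4 then
    if lg r then [(ad r s, mu ty c d),
      (ad (ad r s) s, mu ty c (mu ty d (if ty < 2 then br d else d)))]
    else [(ad r s, mu ty c d), (ad (ad r s) r, mu ty d (mu ty c (if ty < 2 then br c else c)))]
  else []

/-- The product of a word in the letters `X_r(c)`. -/
def ew (X : ℕ → ℕ → G) (w : List (ℕ × ℕ)) : G := (w.map fun p => X p.1 p.2).prod

/-- The relations between the generators `X_r(1)`, `X_r(ω)`. -/
structure Lg (ty : ℕ) (X : ℕ → ℕ → G) : Prop where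
  zero : ∀ r, X r 0 = 1
  add : ∀ r < 48, ∀ c < sz ty r, ∀ d < sz ty r, X r c * X r d = X r (c ^^^ d)
  com : ∀ r < 48, ∀ s < 48, s ≠ r → s ≠ 47 - r → ∀ c < sz ty r, ∀ d < sz ty s, c ≠ 3 → d ≠ 3 →
    X s d * X r c = X r c * X s d * ew X (cw ty r s c d)

/-- Steinberg's relations. -/
structure Lr (ty : ℕ) (X : ℕ → ℕ → G) : Prop where
  zero : ∀ r, X r 0 = 1
  add : ∀ r < 48, ∀ c < sz ty r, ∀ d < sz ty r, X r c * X r d = X r (c ^^^ d)
  com : ∀ r < 48, ∀ s < 48, s ≠ r → s ≠ 47 - r → ∀ c < sz ty r, ∀ d < sz ty s,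
    X s d * X r c = X r c * X s d * ew X (cw ty r s c d)

/-- Steinberg's relations and the action of `t`. -/
structure Rl (j : L0 →* G) (t : G) (ty : ℕ) (X : ℕ → ℕ → G) : Prop extends Lr ty X where
  one : ∀ r < 48, X r 1 = j (xx r)
  tc : ∀ r < 48, ∀ c < sz ty r, t * X r c * t = X r (br c)

/-- The letters made from `x_r` and `Y_r`. -/
noncomputable def mkX (j : L0 →* G) (Y : ℕ → G) (r c : ℕ) : G :=
  (if c / 2 = 1 then Y r else 1) * (if c % 2 = 1 then j (xx r) else 1)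

/-- The subgroup generated by the root groups of the roots `≥ k`; `SS ty X 0 = G₀`,
`SS ty X 24 = Û`. -/
def SS (ty : ℕ) (X : ℕ → ℕ → G) (k : ℕ) : Subgroup G :=
  closure {g | ∃ r c, k ≤ r ∧ r < 48 ∧ c < sz ty r ∧ g = X r c}

/-- What the identification of `G₀` gives. -/
structure Idf (j : L0 →* G) (ty : ℕ) (X : ℕ → ℕ → G) : Prop where
  e1 : ∀ d ∈ SS ty X 0, d * d = 1 → ∃ g ∈ SS ty X 0, ∃ a, g * d * g⁻¹ = j a
  e2 : Odd ((SS ty X 24).relIndex (SS ty X 0))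

end Cfsg.Agent.F42S
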