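import Cfsg.Agent.F42S.Defs

/-! A verified collector: the relations between the generators imply Steinberg's relations. -/

set_option autoImplicit false

namespace Cfsg.Agent.F42S

variable {G : Type*} [Group G] {ty : ℕ} {X : ℕ → ℕ → G}

theorem ew_nil : ew X [] = 1 := rfl

theorem ew_cons (p : ℕ × ℕ) (w : List (ℕ × ℕ)) : ew X (p :: w) = X p.1 p.2 * ew X w := by simp [ew]

theorem ew_append (v w : List (ℕ × ℕ)) : ew X (v ++ w) = ew X v * ew X w := by simp [ew]

/-- A valid letter. -/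
def okL (ty : ℕ) (x : ℕ × ℕ) : Prop := x.1 < 48 ∧ x.2 < sz ty x.1

instance (ty : ℕ) (x : ℕ × ℕ) : Decidable (okL ty x) := inferInstanceAs (Decidable (_ ∧ _))

/-- Insert a letter through `I`, after writing it in the generators. -/
noncomputable def xp (ty : ℕ) (I : ℕ × ℕ → List (ℕ × ℕ) → List (ℕ × ℕ)) (x : ℕ × ℕ) (w : List (ℕ × ℕ)) :
    List (ℕ × ℕ) :=
  Comp.force x.2 fun c => if c = 0 then w else Comp.force x.1 fun k =>
    if c = 3 ∧ okL ty (k, c) then I (k, 1) (I (k, 2) w) else I (k, c) w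

/-- Insert a letter into a collected word. -/
noncomputable def col (ty : ℕ) (rk : ℕ × ℕ → ℕ) : ℕ → ℕ × ℕ → List (ℕ × ℕ) → List (ℕ × ℕ)
  | 0, x, w => x :: w
  | _ + 1, x, [] => [x]
  | f + 1, x, y :: w =>
    if rk x < rk y ∨ ¬ (okL ty x ∧ okL ty y) then x :: y :: w
    else if x.1 = y.1 then (if x.2 = y.2 then w else y :: col ty rk f x w)
    else if x.1 ≠ 47 - y.1 ∧ x.2 ≠ 3 ∧ y.2 ≠ 3 then
      y :: col ty rk f x ((cw ty y.1 x.1 y.2 x.2).foldr (xp ty (col ty rk f)) w)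
    else x :: y :: w

theorem Lg.xp_ok (h : Lg ty X) {I : ℕ × ℕ → List (ℕ × ℕ) → List (ℕ × ℕ)}
    (hI : ∀ x w, ew X (I x w) = X x.1 x.2 * ew X w) (v w : List (ℕ × ℕ)) :
    ew X (v.foldr (xp ty I) w) = ew X v * ew X w := by
  induction v with
  | nil => simp [ew_nil]
  | cons x v ih =>
    rw [List.foldr_cons, ew_cons, mul_assoc, ← ih, xp]
    simp only [Comp.force_eq]
    split_ifs with h1 h2
    · rw [h1, h.zero, one_mul]
    · rw [hI, hI, ← mul_assoc, h.add _ h2.2.1 1 (by have := h2.2.2; omega) 2 (by have := h2.2.2; omega), h2.1]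
      rfl
    · exact hI _ _

theorem Lg.col_ok (h : Lg ty X) (rk : ℕ × ℕ → ℕ) (f : ℕ) (x : ℕ × ℕ) (w : List (ℕ × ℕ)) :
    ew X (col ty rk f x w) = X x.1 x.2 * ew X w := by
  induction f generalizing x w with
  | zero => exact ew_cons _ _
  | succ f ih =>
    cases w with
    | nil => exact ew_cons _ _
    | cons y w =>
      rw [col]
      split_ifs with h1 h2 h3 h4
      · exact ew_cons _ _
      · rw [not_or, not_not] at h1
        rw [ew_cons, ← mul_assoc, h2, h3, h.add _ h1.2.2.1 _ h1.2.2.2 _ h1.2.2.2, Nat.xor_self, h.zero, one_mul]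
      · rw [not_or, not_not] at h1
        have k := h1.2.1.2
        rw [h2] at k
        rw [ew_cons, ew_cons, ih, ← mul_assoc, ← mul_assoc, h2, h.add _ h1.2.2.1 _ h1.2.2.2 _ k,
          h.add _ h1.2.2.1 _ k _ h1.2.2.2, Nat.xor_comm]
      · rw [not_or, not_not] at h1
        rw [ew_cons, ew_cons, ih, h.xp_ok ih, ← mul_assoc, ← mul_assoc, ← mul_assoc,
          h.com _ h1.2.2.1 _ h1.2.1.1 h2 h4.1 _ h1.2.2.2 _ h1.2.1.2 h4.2.2 h4.2.1]
      · exact ew_cons _ _

/-- The collected form of a word. -/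
noncomputable def clt (ty : ℕ) (rk : ℕ × ℕ → ℕ) (w : List (ℕ × ℕ)) : List (ℕ × ℕ) := w.foldr (xp ty (col ty rk 20)) []

theorem Lg.clt_ok (h : Lg ty X) (rk : ℕ × ℕ → ℕ) (w : List (ℕ × ℕ)) : ew X (clt ty rk w) = ew X w := by
  rw [clt, h.xp_ok (h.col_ok rk 20), ew_nil, mul_one]

/-- The order of the letters. -/
def rk2 (r s : ℕ) (x : ℕ × ℕ) : ℕ :=
  if x.1 = r then x.2 else if x.1 = s then 4 + x.2 else if x.1 = ad r s then 8 + x.2 else 12 + x.2

/-- The check. -/
def Chk (ty : ℕ) : Prop := ∀ r < 48, ∀ s < 48, s ≠ r → s ≠ 47 - r → cw ty r s 0 0 ≠ [] → ∀ c < sz ty r, ∀ d < sz ty s, c = 3 ∨ d = 3 →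
  clt ty (rk2 r s) [(s, d), (r, c)] = clt ty (rk2 r s) ((r, c) :: (s, d) :: cw ty r s c d)

set_option synthInstance.maxSize 20000 in
noncomputable instance (ty : ℕ) : Decidable (Chk ty) := by unfold Chk; infer_instance

theorem chk0 : Chk 0 := by decide +kernel
theorem chk1 : Chk 1 := by decide +kernel
theorem chk2 : Chk 2 := by decide +kernel
theorem chk3 : Chk 3 := by decide +kernel

theorem cw_nil {r s : ℕ} (h : cw ty r s 0 0 = []) (c d : ℕ) : cw ty r s c d = [] := by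
  unfold cw at h ⊢
  split_ifs at h ⊢ <;> simp at h ⊢

theorem Lg.lr' (hty : ty < 4) (h : Lg ty X) : Lr ty X := ⟨h.zero, h.add, fun r hr s hs h1 h2 c hc d hd => by
  by_cases e0 : cw ty r s 0 0 = []
  · have k : ∀ {r c}, r < 48 → c < sz ty r → ∀ {g : G}, (∀ c < sz ty r, c ≠ 3 → Commute g (X r c)) →
        Commute g (X r c) := fun {r c} hr hc g hg => by
      by_cases e : c = 3
      · rw [e, show 3 = 1 ^^^ 2 from rfl, ← h.add r hr 1 (by omega) 2 (by omega)]
        exact (hg 1 (by omega) (by omega)).mul_right (hg 2 (by omega) (by omega))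
      · exact hg c hc e
    rw [cw_nil e0, ew_nil, mul_one]
    exact k hr hc fun c hc e => (k hs hd fun d hd e' => Commute.symm (by
      simpa only [cw_nil e0, ew_nil, mul_one, commute_iff_eq] using h.com r hr s hs h1 h2 c hc d hd e e')).symm
  by_cases e : c = 3 ∨ d = 3
  · have k : Chk ty := by
      interval_cases ty
      exacts [chk0, chk1, chk2, chk3]
    have := congrArg (ew X) (k r hr s hs h1 h2 e0 c hc d hd e)
    simpa only [h.clt_ok, ew_cons, ew_nil, mul_one, ← mul_assoc] using this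
  · rw [not_or] at e
    exact h.com r hr s hs h1 h2 c hc d hd e.1 e.2⟩

end Cfsg.Agent.F42S
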